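import Mathlib
import Cfsg.Statements.S2943
import Cfsg.Agent.Lib.Helper81.KS12.S2950Core
import Cfsg.Agent.Lib.Helper71.JC.JCInst

set_option autoImplicit false

/-!
# Core of S2943 (K-S 12: `Z(T) ∩ W_K ≠ 1` implies that `T` normalizes the `J(T)`-component `K`)

The core takes as its only input the statement `JCompCentralize G` of helper81 (two distinct
`J(T)`-components inside `L ∈ jOvergroups T` centralize each other's `W`).  For `t ∈ T` the
conjugate `K^t` is again a `J(T)`-component inside `L`, and an element `z ≠ 1` of `Z(T) ∩ W_K`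
lies in `W_K ∩ W_{K^t}`.  If `K^t ≠ K`, then `K^t` centralizes `z ∈ W_{K^t}`, although every element
of `K^t` outside `O₂(K^t)` acts fixed-point-freely on `W_{K^t}`.
-/

namespace Cfsg.Agent.Lib.Helper74.KS12

open Cfsg

variable {G : Type*} [Group G]

/-- A subgroup fixed by conjugation with every element of `T` is normalized by `T`. -/
theorem le_normalizer_of_forall_map_conj_eq {T K : Subgroup G}
    (h : ∀ t ∈ T, K.map (MulAut.conj t).toMonoidHom = K) : T ≤ Subgroup.normalizer (K : Set G) := by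
  intro t ht
  rw [Subgroup.mem_normalizer_iff]
  intro k
  constructor
  · intro hk
    have h1 : t * k * t⁻¹ ∈ K.map (MulAut.conj t).toMonoidHom := ⟨k, hk, rfl⟩
    rwa [h t ht] at h1
  · intro hk
    have h1 : t⁻¹ * (t * k * t⁻¹) * t⁻¹⁻¹ ∈ K.map (MulAut.conj t⁻¹).toMonoidHom := ⟨_, hk, rfl⟩
    rw [h t⁻¹ (T.inv_mem ht)] at h1
    have h2 : t⁻¹ * (t * k * t⁻¹) * t⁻¹⁻¹ = k := by group
    rwa [h2] at h1

/-- **Core of S2943**, from the statement that distinct `J(T)`-components of `L` centralize each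
other's `W`. -/
theorem s2943_core [Finite G]
    (hComm : Cfsg.Agent.Lib.Helper81.KS12.JCompCentralize G)
    (T : Subgroup G) (hT : IsPGroup 2 ↥T) (hT1 : T ≠ ⊥) (L : Subgroup G)
    (hLT : L ∈ Cfsg.jOvergroups T) (K : Subgroup G) (hK : Cfsg.IsJComponent T K) (hKL : K ≤ L)
    (hZW : T ⊓ Subgroup.centralizer (T : Set G) ⊓ Cfsg.wOf K ≠ ⊥) :
    T ≤ Subgroup.normalizer (K : Set G) := by
  obtain ⟨⟨z, hz⟩, hz1⟩ := (Subgroup.ne_bot_iff_exists_ne_one).mp hZW
  have hz1' : z ≠ 1 := fun h => hz1 (Subtype.ext h)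
  obtain ⟨⟨hzT, hzC⟩, hzW⟩ := hz
  have hTL : T ≤ L := hLT.1.1
  apply le_normalizer_of_forall_map_conj_eq
  intro t ht
  by_contra hne
  have htJ : t ∈ Subgroup.normalizer (thompsonSubgroupOf 2 T : Set G) :=
    Cfsg.Agent.Lib.Helper11.normalizer_le_normalizer_thompsonSubgroupOf 2 T
      (Subgroup.le_normalizer ht)
  have hK' : IsJComponent T (K.map (MulAut.conj t).toMonoidHom) :=
    Cfsg.Agent.Lib.Helper81.KS12.isJComponent_map_conj hK htJ
  have hK'L : K.map (MulAut.conj t).toMonoidHom ≤ L := by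
    rintro _ ⟨k, hk, rfl⟩
    exact L.mul_mem (L.mul_mem (hTL ht) (hKL hk)) (L.inv_mem (hTL ht))
  have hcen := hComm T L K (K.map (MulAut.conj t).toMonoidHom) hT hT1 hLT hK hK' hKL hK'L
    (fun h => hne h.symm)
  -- `z` lies in `W_{K^t}`
  have hzt : t * z * t⁻¹ = z := by
    have h1 := Subgroup.mem_centralizer_iff.mp hzC t ht
    rw [h1, mul_inv_cancel_right]
  have hzW' : z ∈ wOf (K.map (MulAut.conj t).toMonoidHom) := by
    rw [Cfsg.Agent.Lib.Helper81.KS12.wOf_map]
    exact ⟨z, hzW, hzt⟩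
  -- an element of `K^t` outside `O₂(K^t)`
  have c := Cfsg.Agent.Lib.Helper71.JC.cfg_of_isJComponent hT hK'
  obtain ⟨d, hd, hdR⟩ : ∃ d ∈ K.map (MulAut.conj t).toMonoidHom,
      d ∉ pCoreOf 2 (K.map (MulAut.conj t).toMonoidHom) := by
    by_contra hcon
    push Not at hcon
    have h1 : (pCoreOf 2 (K.map (MulAut.conj t).toMonoidHom)).relIndex
        (K.map (MulAut.conj t).toMonoidHom) = 1 := Subgroup.relIndex_eq_one.mpr hcon
    rw [c.hidx] at h1
    norm_num at h1
  have hdz : d * z * d⁻¹ = z := by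
    have h1 := Subgroup.mem_centralizer_iff.mp (hcen hd) z hzW
    rw [← h1, mul_inv_cancel_right]
  exact hz1' (c.hfp d hd hdR z hzW' hdz)

end Cfsg.Agent.Lib.Helper74.KS12
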